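import Cfsg.Agent.H17.LPDefs
import Cfsg.Agent.H1.Card

/-! Project LP: coordinates on the Sylow subgroup of the model. -/

set_option autoImplicit false

namespace Cfsg.Agent.H73.LpB

open Cfsg.Agent.H17.LP Matrix Subgroup

@[ext] structure B where
  (a12 a13 a14 a15 a23 a24 a25 a34 a35 a45 x12 x13 x14 x15 x23 x24 x25 x34 x35 x45 : F)

def B.mul (u w : B) : B :=
  ⟨u.a12 + w.a12 + u.x13 * w.a23 + u.x14 * w.a24 + u.x15 * w.a25 + u.x23 * w.a13 + u.x24 * w.a14 + u.x25 * w.a15 + u.x12 * u.x23 * w.a23 + u.x12 * u.x24 * w.a24 + u.x12 * u.x25 * w.a25 + u.x13 * u.x24 * w.a34 + u.x13 * u.x25 * w.a35 + u.x14 * u.x23 * w.a34 + u.x14 * u.x25 * w.a45 + u.x15 * u.x23 * w.a35 + u.x15 * u.x24 * w.a45,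
    u.a13 + w.a13 + u.x12 * w.a23 + u.x14 * w.a34 + u.x15 * w.a35 + u.x34 * w.a14 + u.x35 * w.a15 + u.x12 * u.x34 * w.a24 + u.x12 * u.x35 * w.a25 + u.x13 * u.x34 * w.a34 + u.x13 * u.x35 * w.a35 + u.x14 * u.x35 * w.a45 + u.x15 * u.x34 * w.a45,
    u.a14 + w.a14 + u.x12 * w.a24 + u.x13 * w.a34 + u.x15 * w.a45 + u.x45 * w.a15 + u.x12 * u.x45 * w.a25 + u.x13 * u.x45 * w.a35 + u.x14 * u.x45 * w.a45,
    u.a15 + w.a15 + u.x12 * w.a25 + u.x13 * w.a35 + u.x14 * w.a45,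
    u.a23 + w.a23 + u.x24 * w.a34 + u.x25 * w.a35 + u.x34 * w.a24 + u.x35 * w.a25 + u.x23 * u.x34 * w.a34 + u.x23 * u.x35 * w.a35 + u.x24 * u.x35 * w.a45 + u.x25 * u.x34 * w.a45,
    u.a24 + w.a24 + u.x23 * w.a34 + u.x25 * w.a45 + u.x45 * w.a25 + u.x23 * u.x45 * w.a35 + u.x24 * u.x45 * w.a45,
    u.a25 + w.a25 + u.x23 * w.a35 + u.x24 * w.a45,
    u.a34 + w.a34 + u.x35 * w.a45 + u.x45 * w.a35 + u.x34 * u.x45 * w.a45,
    u.a35 + w.a35 + u.x34 * w.a45,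
    u.a45 + w.a45,
    u.x12 + w.x12,
    u.x13 + w.x13 + u.x12 * w.x23,
    u.x14 + w.x14 + u.x12 * w.x24 + u.x13 * w.x34,
    u.x15 + w.x15 + u.x12 * w.x25 + u.x13 * w.x35 + u.x14 * w.x45,
    u.x23 + w.x23,
    u.x24 + w.x24 + u.x23 * w.x34,
    u.x25 + w.x25 + u.x23 * w.x35 + u.x24 * w.x45,
    u.x34 + w.x34,
    u.x35 + w.x35 + u.x34 * w.x45,
    u.x45 + w.x45⟩

instance : Mul B := ⟨B.mul⟩
theorem mul_def (u w : B) : u * w = B.mul u w := rfl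

def ma (u : B) : M5 := !![0, u.a12, u.a13, u.a14, u.a15; u.a12, 0, u.a23, u.a24, u.a25; u.a13, u.a23, 0, u.a34, u.a35; u.a14, u.a24, u.a34, 0, u.a45; u.a15, u.a25, u.a35, u.a45, 0]
def mg (u : B) : M5 := !![1, u.x12, u.x13, u.x14, u.x15; 0, 1, u.x23, u.x24, u.x25; 0, 0, 1, u.x34, u.x35; 0, 0, 0, 1, u.x45; 0, 0, 0, 0, 1]

theorem det_mg (u : B) : (mg u).det = 1 := by
  rw [det_of_isUpperTriangular]
  · simp [mg, Fin.prod_univ_five]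
  · intro i j h
    fin_cases i <;> fin_cases j <;> first | rfl | exact absurd h (by decide)

theorem alt_ma (u : B) : Alt (ma u) :=
  ⟨by ext i j; fin_cases i <;> fin_cases j <;> rfl, fun i => by fin_cases i <;> rfl⟩

def el (u : B) : N0 := ⟨ma u, ⟨mg u, det_mg u⟩, alt_ma u⟩

def rd (n : N0) : B := ⟨n.a 0 1, n.a 0 2, n.a 0 3, n.a 0 4, n.a 1 2, n.a 1 3, n.a 1 4, n.a 2 3, n.a 2 4, n.a 3 4, n.g.1 0 1, n.g.1 0 2, n.g.1 0 3, n.g.1 0 4, n.g.1 1 2, n.g.1 1 3, n.g.1 1 4, n.g.1 2 3, n.g.1 2 4, n.g.1 3 4⟩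

theorem rd_el (u : B) : rd (el u) = u := rfl

theorem el_inj {u w : B} (h : el u = el w) : u = w := by rw [← rd_el u, h, rd_el]

theorem mg_mul (u w : B) : mg (u * w) = mg u * mg w := by
  ext i j
  simp only [mul_apply, Fin.sum_univ_five]
  fin_cases i <;> fin_cases j <;> simp [mg, mul_def, B.mul] <;> ring

theorem ma_mul (u w : B) : ma (u * w) = ma u + mg u * ma w * (mg u)ᵀ := by
  ext i j
  simp only [Matrix.add_apply, mul_apply, Fin.sum_univ_five, transpose_apply]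
  fin_cases i <;> fin_cases j <;> simp [ma, mg, mul_def, B.mul] <;> grind

theorem el_mul (u w : B) : el (u * w) = el u * el w :=
  N0.ext (ma_mul u w) (Subtype.ext (mg_mul u w))

theorem el_T (u : B) : el u ∈ T0 := by
  simp [T0, mem_Pat, Fin.forall_fin_succ, el, mg, one_apply]

theorem el_rd {n : N0} (h : n ∈ T0) : el (rd n) = n := by
  refine N0.ext ?_ (Subtype.ext ?_)
  · ext i j
    fin_cases i <;> fin_cases j <;>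
      first | rfl | exact n.alt.symm _ _ | exact (n.alt.2 _).symm
  · ext i j
    have := h.2 i j
    fin_cases i <;> fin_cases j <;> first | rfl | exact (this (by decide)).symm

theorem ex {n : N0} (h : n ∈ T0) : ∃ u, n = el u := ⟨_, (el_rd h).symm⟩

theorem mem_Q0 (u : B) : el u ∈ Q0 ↔ u.a34 = 0 ∧ u.a35 = 0 ∧ u.a45 = 0 ∧ u.x12 = 0 ∧ u.x34 = 0 ∧ u.x35 = 0 ∧ u.x45 = 0 := by
  simp [Q0, mem_Pat, Fin.forall_fin_succ, el, ma, mg, one_apply]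
  tauto

theorem mem_Z0 (u : B) : el u ∈ Z0 ↔ u.a13 = 0 ∧ u.a14 = 0 ∧ u.a15 = 0 ∧ u.a23 = 0 ∧ u.a24 = 0 ∧ u.a25 = 0 ∧ u.a34 = 0 ∧ u.a35 = 0 ∧ u.a45 = 0 ∧ u.x12 = 0 ∧ u.x13 = 0 ∧ u.x14 = 0 ∧ u.x15 = 0 ∧ u.x23 = 0 ∧ u.x24 = 0 ∧ u.x25 = 0 ∧ u.x34 = 0 ∧ u.x35 = 0 ∧ u.x45 = 0 := by
  simp [Z0, mem_Pat, Fin.forall_fin_succ, el, ma, mg, one_apply]
  tauto

theorem mem_QA (u : B) : el u ∈ QA ↔ u.x12 = 0 ∧ u.x34 = 0 ∧ u.x35 = 0 ∧ u.x45 = 0 := by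
  simp [QA, mem_Pat, Fin.forall_fin_succ, el, ma, mg, one_apply]
  tauto

theorem mem_A1 (u : B) : el u ∈ A1 ↔ u.a34 = 0 ∧ u.a35 = 0 ∧ u.a45 = 0 ∧ u.x12 = 0 ∧ u.x13 = 0 ∧ u.x14 = 0 ∧ u.x15 = 0 ∧ u.x23 = 0 ∧ u.x24 = 0 ∧ u.x25 = 0 ∧ u.x34 = 0 ∧ u.x35 = 0 ∧ u.x45 = 0 := by
  simp [A1, mem_Pat, Fin.forall_fin_succ, el, ma, mg, one_apply]
  tauto

theorem mem_Ap (u : B) : el u ∈ Ap ↔ u.a15 = 0 ∧ u.a25 = 0 ∧ u.a35 = 0 ∧ u.a45 = 0 ∧ u.x12 = 0 ∧ u.x13 = 0 ∧ u.x14 = 0 ∧ u.x23 = 0 ∧ u.x24 = 0 ∧ u.x34 = 0 := by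
  simp [Ap, mem_Pat, Fin.forall_fin_succ, el, ma, mg, one_apply]
  tauto

theorem mem_Z6 (u : B) : el u ∈ Z6 ↔ u.a15 = 0 ∧ u.a25 = 0 ∧ u.a35 = 0 ∧ u.a45 = 0 ∧ u.x12 = 0 ∧ u.x13 = 0 ∧ u.x14 = 0 ∧ u.x15 = 0 ∧ u.x23 = 0 ∧ u.x24 = 0 ∧ u.x25 = 0 ∧ u.x34 = 0 ∧ u.x35 = 0 ∧ u.x45 = 0 := by
  simp [Z6, mem_Pat, Fin.forall_fin_succ, el, ma, mg, one_apply]
  tauto

theorem quo (u w : B) : ∃ d, el u * (el w)⁻¹ = el d ∧ u = d * w := by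
  obtain ⟨d, e⟩ := ex (T0.mul_mem (el_T u) (T0.inv_mem (el_T w)))
  exact ⟨d, e, el_inj (by rw [el_mul, ← e, inv_mul_cancel_right])⟩

/-- equality modulo `Q` -/
def EQ (u w : B) : Prop := u.a34 = w.a34 ∧ u.a35 = w.a35 ∧ u.a45 = w.a45 ∧ u.x12 = w.x12 ∧ u.x34 = w.x34 ∧ u.x35 = w.x35 ∧ u.x45 = w.x45

theorem quo_Q (u w : B) : el u * (el w)⁻¹ ∈ Q0 ↔ EQ u w := by
  obtain ⟨d, e, rfl⟩ := quo u w
  rw [e, mem_Q0]
  simp only [EQ, mul_def, B.mul]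
  grind

/-- equality modulo `Z` -/
def EZ (u w : B) : Prop := u.a13 = w.a13 ∧ u.a14 = w.a14 ∧ u.a15 = w.a15 ∧ u.a23 = w.a23 ∧ u.a24 = w.a24 ∧ u.a25 = w.a25 ∧ u.a34 = w.a34 ∧ u.a35 = w.a35 ∧ u.a45 = w.a45 ∧ u.x12 = w.x12 ∧ u.x13 = w.x13 ∧ u.x14 = w.x14 ∧ u.x15 = w.x15 ∧ u.x23 = w.x23 ∧ u.x24 = w.x24 ∧ u.x25 = w.x25 ∧ u.x34 = w.x34 ∧ u.x35 = w.x35 ∧ u.x45 = w.x45

theorem quo_Z (u w : B) : el u * (el w)⁻¹ ∈ Z0 ↔ EZ u w := by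
  obtain ⟨d, e, rfl⟩ := quo u w
  rw [e, mem_Z0]
  simp only [EZ, mul_def, B.mul]
  grind

/-- `v` in `Q` commutes with `s` modulo `Z` -/
def E (v s : B) : Prop := s.a34 * v.x14 + s.a35 * v.x15 + s.x12 * v.a23 + s.x34 * v.a14 + s.x35 * v.a15 + s.x12 * s.x34 * v.a24 + s.x12 * s.x35 * v.a25 = 0 ∧
    s.a34 * v.x13 + s.a45 * v.x15 + s.x12 * v.a24 + s.x45 * v.a15 + s.x12 * s.x45 * v.a25 = 0 ∧
    s.a35 * v.x13 + s.a45 * v.x14 + s.x12 * v.a25 = 0 ∧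
    s.a34 * v.x24 + s.a35 * v.x25 + s.x34 * v.a24 + s.x35 * v.a25 = 0 ∧
    s.a34 * v.x23 + s.a45 * v.x25 + s.x45 * v.a25 = 0 ∧
    s.a35 * v.x23 + s.a45 * v.x24 = 0 ∧
    s.x12 * v.x23 = 0 ∧
    s.x12 * v.x24 + s.x34 * v.x13 = 0 ∧
    s.x12 * v.x25 + s.x35 * v.x13 + s.x45 * v.x14 = 0 ∧
    s.x34 * v.x23 = 0 ∧
    s.x35 * v.x23 + s.x45 * v.x24 = 0

theorem zc {v : B} (h : el v ∈ Q0) (s : B) : el v * el s * (el v)⁻¹ * (el s)⁻¹ ∈ Z0 ↔ E v s := by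
  rw [mul_assoc, ← _root_.mul_inv_rev, ← el_mul, ← el_mul, quo_Z]
  obtain ⟨h1, h2, h3, h4, h5, h6, h7⟩ := (mem_Q0 v).1 h
  have ka13 : (v * s).a13 = (s * v).a13 + (s.a34 * v.x14 + s.a35 * v.x15 + s.x12 * v.a23 + s.x34 * v.a14 + s.x35 * v.a15 + s.x12 * s.x34 * v.a24 + s.x12 * s.x35 * v.a25) := by
    simp only [mul_def, B.mul, h1, h2, h3, h4, h5, h6, h7]; grind
  have ka14 : (v * s).a14 = (s * v).a14 + (s.a34 * v.x13 + s.a45 * v.x15 + s.x12 * v.a24 + s.x45 * v.a15 + s.x12 * s.x45 * v.a25) := by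
    simp only [mul_def, B.mul, h1, h2, h3, h4, h5, h6, h7]; grind
  have ka15 : (v * s).a15 = (s * v).a15 + (s.a35 * v.x13 + s.a45 * v.x14 + s.x12 * v.a25) := by
    simp only [mul_def, B.mul, h1, h2, h3, h4, h5, h6, h7]; grind
  have ka23 : (v * s).a23 = (s * v).a23 + (s.a34 * v.x24 + s.a35 * v.x25 + s.x34 * v.a24 + s.x35 * v.a25) := by
    simp only [mul_def, B.mul, h1, h2, h3, h4, h5, h6, h7]; grind
  have ka24 : (v * s).a24 = (s * v).a24 + (s.a34 * v.x23 + s.a45 * v.x25 + s.x45 * v.a25) := by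
    simp only [mul_def, B.mul, h1, h2, h3, h4, h5, h6, h7]; grind
  have ka25 : (v * s).a25 = (s * v).a25 + (s.a35 * v.x23 + s.a45 * v.x24) := by
    simp only [mul_def, B.mul, h1, h2, h3, h4, h5, h6, h7]; grind
  have ka34 : (v * s).a34 = (s * v).a34 := by
    simp only [mul_def, B.mul, h1, h2, h3, h4, h5, h6, h7]; grind
  have ka35 : (v * s).a35 = (s * v).a35 := by
    simp only [mul_def, B.mul, h1, h2, h3, h4, h5, h6, h7]; grind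
  have ka45 : (v * s).a45 = (s * v).a45 := by
    simp only [mul_def, B.mul, h1, h2, h3, h4, h5, h6, h7]; grind
  have kx12 : (v * s).x12 = (s * v).x12 := by
    simp only [mul_def, B.mul, h1, h2, h3, h4, h5, h6, h7]; grind
  have kx13 : (v * s).x13 = (s * v).x13 + (s.x12 * v.x23) := by
    simp only [mul_def, B.mul, h1, h2, h3, h4, h5, h6, h7]; grind
  have kx14 : (v * s).x14 = (s * v).x14 + (s.x12 * v.x24 + s.x34 * v.x13) := by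
    simp only [mul_def, B.mul, h1, h2, h3, h4, h5, h6, h7]; grind
  have kx15 : (v * s).x15 = (s * v).x15 + (s.x12 * v.x25 + s.x35 * v.x13 + s.x45 * v.x14) := by
    simp only [mul_def, B.mul, h1, h2, h3, h4, h5, h6, h7]; grind
  have kx23 : (v * s).x23 = (s * v).x23 := by
    simp only [mul_def, B.mul, h1, h2, h3, h4, h5, h6, h7]; grind
  have kx24 : (v * s).x24 = (s * v).x24 + (s.x34 * v.x23) := by
    simp only [mul_def, B.mul, h1, h2, h3, h4, h5, h6, h7]; grind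
  have kx25 : (v * s).x25 = (s * v).x25 + (s.x35 * v.x23 + s.x45 * v.x24) := by
    simp only [mul_def, B.mul, h1, h2, h3, h4, h5, h6, h7]; grind
  have kx34 : (v * s).x34 = (s * v).x34 := by
    simp only [mul_def, B.mul, h1, h2, h3, h4, h5, h6, h7]; grind
  have kx35 : (v * s).x35 = (s * v).x35 := by
    simp only [mul_def, B.mul, h1, h2, h3, h4, h5, h6, h7]; grind
  have kx45 : (v * s).x45 = (s * v).x45 := by
    simp only [mul_def, B.mul, h1, h2, h3, h4, h5, h6, h7]; grind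
  simp only [EZ, E, ka13, ka14, ka15, ka23, ka24, ka25, ka34, ka35, ka45, kx12, kx13, kx14, kx15, kx23, kx24, kx25, kx34, kx35, kx45, add_eq_left, true_and, and_true]

end Cfsg.Agent.H73.LpB
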