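import Cfsg.Agent.H35.RfQ
import Cfsg.Agent.H1.Card

/-! Project RF, piece LTA: commutators with `ω` modulo `R` and modulo `Q`. -/

set_option autoImplicit false

namespace Cfsg.Agent.H73.RfLta

open Cfsg Subgroup Cfsg.Agent.H18.Rf Cfsg.Agent.H35.RF
open scoped commutatorElement Pointwise

universe u

theorem key {G : Type u} [Group G] {V W R Q : Subgroup G} {z x r : G} (a : Va V z W R)
    (l : QL V z W R Q) (hx : x ∈ MM V z) (x3 : x ^ 3 = 1)
    (hc : ∀ v ∈ V, ⁅v, x⁆ ∈ Q) (hr : r ∈ R) (h3 : (r * x) ^ 3 = 1) : r ∈ Q := by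
  have VN : V ≤ NN Q := a.VR.trans (a.RM.trans l.nQ)
  have : r ∈ ((Q ⊔ V : Subgroup G) : Set G) := l.sup ▸ hr
  rw [coe_mul_of_right_le_normalizer_left Q V VN] at this
  obtain ⟨q, hq, v, hv, rfl⟩ := this
  let π := QuotientGroup.mk' (Q.subgroupOf (NN Q))
  have k : ∀ n : NN Q, π n = 1 ↔ (n : G) ∈ Q := fun n => QuotientGroup.eq_one_iff n
  let q' : NN Q := ⟨q, le_normalizer hq⟩
  let v' : NN Q := ⟨v, VN hv⟩
  let x' : NN Q := ⟨x, l.nQ hx⟩
  have c : Commute (π v') (π x') := by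
    rw [← commutatorElement_eq_one_iff_commute, ← map_commutatorElement, k]
    exact hc v hv
  have e1 : π q' = 1 := (k _).2 hq
  have e2 : π x' ^ 3 = 1 := by rw [← map_pow, show x' ^ 3 = 1 from Subtype.ext x3, map_one]
  have e3 : π v' * π v' = 1 := by rw [← map_mul, show v' * v' = 1 from Subtype.ext (a.el v hv), map_one]
  have e4 : (π q' * π v' * π x') ^ 3 = 1 := by
    rw [← map_mul, ← map_mul, ← map_pow, show (q' * v' * x') ^ 3 = 1 from Subtype.ext h3, map_one]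
  rw [e1, one_mul, c.mul_pow, e2, mul_one, pow_succ, sq, e3, one_mul] at e4
  exact Q.mul_mem hq ((k v').1 e4)

theorem lta : LtaStmt.{u} := by
  intro G _ _ V z W R Q ω a t l
  have WQ : W ≤ Q := l.inf ▸ inf_le_left
  have QR : Q ≤ R := l.sup ▸ le_sup_left
  have o3 : ω ^ 3 = 1 := t.o3 ▸ pow_orderOf_eq_one ω
  refine ⟨?_, fun q hq => ?_, fun m _ h => ?_, fun m _ h => ?_⟩
  · have := H1.card_sup_mul_card_inf_of_le_normalizer (A := V) (B := Q) (a.VR.trans (a.RM.trans l.nQ))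
    rw [sup_comm, inf_comm, l.sup, l.inf, t.cR, t.cW, a.cV] at this
    omega
  · have h1 : ⁅ω, q⁆ ∈ zpowers z := by
      rw [← commutatorElement_inv]
      exact inv_mem (hq.2.2 ω rfl)
    have h2 := t.fR q (QR hq.1) (a.WV ((zpowers_le.2 a.zW) h1))
    exact t.fW q (l.inf ▸ ⟨hq.1, h2⟩) h1
  · refine key a l t.om o3 (fun v hv => WQ (t.ωV v hv)) h ?_
    rw [commutatorElement_def, inv_mul_cancel_right, conj_pow, o3, mul_one, mul_inv_cancel]
  · refine key (x := ω⁻¹) a l (inv_mem t.om) (by rw [inv_pow, o3, inv_one]) (fun v hv => ?_) h ?_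
    · have := (mem_normalizer_iff''.1 (l.nQ t.om) _).1 (Q.inv_mem (WQ (t.ωV v hv)))
      simpa [commutatorElement_def, mul_assoc] using this
    · rw [mul_inv_cancel_right, conj_pow, o3, mul_one, mul_inv_cancel]

end Cfsg.Agent.H73.RfLta
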